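import Mathlib

set_option autoImplicit false

namespace Cfsg.Agent.Lib.Helper18.Suzuki2

universe u

/-- commutator-like element: `x * y = y * x * cm x y`. -/
def cm {P : Type u} [Group P] (x y : P) : P := x⁻¹ * y⁻¹ * x * y

section basic
variable {P : Type u} [Group P]

lemma mul_eq_cm (x y : P) : x * y = y * x * cm x y := by
  unfold cm; group

lemma cm_self (x : P) : cm x x = 1 := by unfold cm; group

lemma cm_map (φ : MulAut P) (x y : P) : φ (cm x y) = cm (φ x) (φ y) := by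
  unfold cm; simp only [map_mul, map_inv]

lemma cm_eq_one_iff (x y : P) : cm x y = 1 ↔ x * y = y * x := by
  constructor
  · intro h
    have := mul_eq_cm x y
    rw [h, mul_one] at this
    exact this
  · intro h
    unfold cm
    have e : x⁻¹ * y⁻¹ * x * y = x⁻¹ * y⁻¹ * (x * y) := by group
    rw [e, h]; group

lemma cm_inv_swap (x y : P) : cm y x = (cm x y)⁻¹ := by unfold cm; group

lemma aut_central (φ : MulAut P) (c : P) (hc : ∀ g, c * g = g * c) : ∀ g, φ c * g = g * φ c := by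
  intro g
  have h := congrArg φ (hc (φ.symm g))
  simpa only [map_mul, MulEquiv.apply_symm_apply] using h

lemma pow_comm_apply (ξ : MulAut P) (a b : ℕ) (y : P) :
    (ξ ^ a) ((ξ ^ b) y) = (ξ ^ b) ((ξ ^ a) y) := by
  rw [← MulAut.mul_apply, ← MulAut.mul_apply, ← pow_add, ← pow_add, add_comm]

end basic

/-- class-two setting: all `cm` are central of order at most two. -/
structure C2 (P : Type u) [Group P] : Prop where
  cen : ∀ x y g : P, cm x y * g = g * cm x y
  sq : ∀ x y : P, cm x y * cm x y = 1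

namespace C2
variable {P : Type u} [Group P] (h : C2 P)
include h

lemma mul_left (a b y : P) : cm (a * b) y = cm a y * cm b y := by
  have e := h.cen a y b⁻¹
  unfold cm at e ⊢
  calc (a * b)⁻¹ * y⁻¹ * (a * b) * y = b⁻¹ * (a⁻¹ * y⁻¹ * a * y) * (y⁻¹ * b * y) := by group
    _ = (a⁻¹ * y⁻¹ * a * y) * b⁻¹ * (y⁻¹ * b * y) := by rw [← e]
    _ = a⁻¹ * y⁻¹ * a * y * (b⁻¹ * y⁻¹ * b * y) := by group

lemma mul_right (x a b : P) : cm x (a * b) = cm x a * cm x b := by
  have e := h.cen x a (x⁻¹ * b⁻¹ * x)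
  unfold cm at e ⊢
  calc x⁻¹ * (a * b)⁻¹ * x * (a * b) = (x⁻¹ * b⁻¹ * x) * (x⁻¹ * a⁻¹ * x * a) * b := by group
    _ = (x⁻¹ * a⁻¹ * x * a) * (x⁻¹ * b⁻¹ * x) * b := by rw [← e]
    _ = x⁻¹ * a⁻¹ * x * a * (x⁻¹ * b⁻¹ * x * b) := by group

lemma symm (x y : P) : cm y x = cm x y := by
  rw [cm_inv_swap]
  exact inv_eq_of_mul_eq_one_left (h.sq x y)

lemma sq_central (x g : P) : (x * x) * g = g * (x * x) := by
  rw [← cm_eq_one_iff, h.mul_left, h.sq]

lemma right_of_central (x y : P) (hy : ∀ g, y * g = g * y) : cm x y = 1 := by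
  rw [cm_eq_one_iff]; exact (hy x).symm

end C2

lemma exists_central_invol {G : Type u} [Group G] [Finite G] [Nontrivial G] (hG : IsPGroup 2 G) :
    ∃ c : G, c ≠ 1 ∧ c * c = 1 ∧ ∀ g, c * g = g * c := by
  have : Fact (Nat.Prime 2) := ⟨Nat.prime_two⟩
  have := hG.center_nontrivial
  have hZ : IsPGroup 2 (Subgroup.center G) := hG.to_subgroup _
  have hdvd : 2 ∣ Nat.card (Subgroup.center G) := by
    rcases hZ.card_eq_or_dvd with h1 | h1
    · exfalso
      have := Finite.one_lt_card (α := Subgroup.center G)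
      omega
    · exact h1
  obtain ⟨c, hc⟩ := exists_prime_orderOf_dvd_card' 2 hdvd
  refine ⟨(c : G), ?_, ?_, ?_⟩
  · intro h
    have : c = 1 := Subtype.ext h
    rw [this, orderOf_one] at hc
    omega
  · have h2 : c ^ 2 = 1 := by rw [← hc]; exact pow_orderOf_eq_one c
    have : ((c ^ 2 : Subgroup.center G) : G) = 1 := by rw [h2]; rfl
    simpa [pow_two] using this
  · intro g
    exact ((Subgroup.mem_center_iff.mp c.2) g).symm

lemma exists_order4 {G : Type u} [Group G] (hG : IsPGroup 2 G) (z : G) (hz : z * z ≠ 1) :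
    ∃ k : ℕ, z ^ k * z ^ k ≠ 1 ∧ (z ^ k * z ^ k) * (z ^ k * z ^ k) = 1 := by
  classical
  have hex : ∃ j : ℕ, z ^ (2 ^ j) = 1 := hG z
  have hj0s : z ^ (2 ^ Nat.find hex) = 1 := Nat.find_spec hex
  have hmin : ∀ i, i < Nat.find hex → z ^ (2 ^ i) ≠ 1 := fun i hi => Nat.find_min hex hi
  have h0 : Nat.find hex ≠ 0 := by
    intro h
    rw [h] at hj0s
    simp at hj0s
    exact hz (by rw [hj0s]; simp)
  have h1 : Nat.find hex ≠ 1 := by
    intro h
    rw [h] at hj0s
    apply hz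
    have : z ^ 2 = 1 := by simpa using hj0s
    rw [← pow_two]; exact this
  obtain ⟨i, hi⟩ : ∃ i, Nat.find hex = i + 2 := ⟨Nat.find hex - 2, by omega⟩
  refine ⟨2 ^ i, ?_, ?_⟩
  · have : z ^ 2 ^ i * z ^ 2 ^ i = z ^ (2 ^ (i + 1)) := by rw [← pow_add]; congr 1; ring
    rw [this]; exact hmin _ (by omega)
  · have : z ^ 2 ^ i * z ^ 2 ^ i * (z ^ 2 ^ i * z ^ 2 ^ i) = z ^ (2 ^ (i + 2)) := by
      rw [← pow_add, ← pow_add]; congr 1; ring
    rw [this, ← hi]; exact hj0s

lemma exists_pow_invol {G : Type u} [Group G] (hG : IsPGroup 2 G) (x1 : G) (j : ℕ)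
    (h : x1 ^ (2 ^ j) ≠ 1) : ∃ x2 : G, x2 ^ (2 ^ j) ≠ 1 ∧ x2 ^ (2 ^ j) * x2 ^ (2 ^ j) = 1 := by
  classical
  have hex : ∃ i : ℕ, x1 ^ (2 ^ i) = 1 := hG x1
  have hs : x1 ^ (2 ^ Nat.find hex) = 1 := Nat.find_spec hex
  have hmin : ∀ i, i < Nat.find hex → x1 ^ (2 ^ i) ≠ 1 := fun i hi => Nat.find_min hex hi
  have hlt : j < Nat.find hex := by
    by_contra hcon
    push Not at hcon
    apply h
    obtain ⟨d, hd⟩ := Nat.exists_eq_add_of_le hcon
    rw [hd, pow_add, pow_mul, hs, one_pow]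
  obtain ⟨t, ht⟩ : ∃ t, Nat.find hex = t + j + 1 := ⟨Nat.find hex - j - 1, by omega⟩
  refine ⟨x1 ^ (2 ^ t), ?_, ?_⟩
  · rw [← pow_mul, ← pow_add]
    exact hmin _ (by omega)
  · rw [← pow_mul, ← pow_add, ← pow_add]
    have : 2 ^ (t + j) + 2 ^ (t + j) = 2 ^ (t + j + 1) := by ring
    rw [this, ← ht]; exact hs

lemma exists_top {G : Type u} [Group G] [Finite G] (hG : IsPGroup 2 G) (hnt : ∃ x : G, x ≠ 1) :
    ∃ μ : ℕ, (∃ x0 : G, x0 ^ (2 ^ μ) ≠ 1) ∧ ∀ y : G, y ^ (2 ^ (μ + 1)) = 1 := by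
  classical
  have : Fact (Nat.Prime 2) := ⟨Nat.prime_two⟩
  have hex : ∃ M : ℕ, ∀ y : G, y ^ (2 ^ M) = 1 := by
    obtain ⟨N, hN⟩ := (IsPGroup.iff_card (p := 2)).mp hG
    exact ⟨N, fun y => by rw [← hN]; exact pow_card_eq_one'⟩
  have hs := Nat.find_spec hex
  have hmin : ∀ i, i < Nat.find hex → ¬ ∀ y : G, y ^ (2 ^ i) = 1 := fun i hi => Nat.find_min hex hi
  have h0 : Nat.find hex ≠ 0 := by
    intro h
    rw [h] at hs
    obtain ⟨x, hx⟩ := hnt
    exact hx (by simpa using hs x)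
  obtain ⟨μ, hμ⟩ : ∃ μ, Nat.find hex = μ + 1 := ⟨Nat.find hex - 1, by omega⟩
  refine ⟨μ, ?_, ?_⟩
  · have := hmin μ (by omega)
    push Not at this
    exact this
  · rw [← hμ]; exact hs

lemma inv_central {P : Type u} [Group P] [Finite P] (hP : IsPGroup 2 P) (ξ : MulAut P)
    (htr : ∀ x y : P, x ≠ 1 → x * x = 1 → y ≠ 1 → y * y = 1 → ∃ m : ℕ, (ξ ^ m) x = y)
    (x : P) (hx : x * x = 1) : ∀ g, x * g = g * x := by
  by_cases hx1 : x = 1
  · intro g; rw [hx1]; simp
  · have : Nontrivial P := ⟨⟨x, 1, hx1⟩⟩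
    obtain ⟨c, hc1, hcc, hcz⟩ := exists_central_invol hP
    obtain ⟨m, hm⟩ := htr c x hc1 hcc hx1 hx
    rw [← hm]
    exact aut_central _ c hcz

/-- the subgroup of elements of order at most two, when these are central. -/
def Z1 {P : Type u} [Group P] (hc : ∀ x : P, x * x = 1 → ∀ g, x * g = g * x) : Subgroup P where
  carrier := {x | x * x = 1}
  mul_mem' := fun {a b} ha hb => by
    show a * b * (a * b) = 1
    have ha' : a * a = 1 := ha
    have hb' : b * b = 1 := hb
    have h := hc b hb' a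
    calc a * b * (a * b) = a * (b * a) * b := by group
      _ = a * (a * b) * b := by rw [h]
      _ = (a * a) * (b * b) := by group
      _ = 1 := by rw [ha', hb', one_mul]
  one_mem' := by show (1 : P) * 1 = 1; simp
  inv_mem' := fun {a} ha => by
    show a⁻¹ * a⁻¹ = 1
    have ha' : a * a = 1 := ha
    have : a⁻¹ * a⁻¹ = (a * a)⁻¹ := by group
    rw [this, ha', inv_one]


lemma abelian_of_c2 {P : Type u} [Group P] [Finite P] (hP : IsPGroup 2 P) (ξ : MulAut P)
    (htr : ∀ x y : P, x ≠ 1 → x * x = 1 → y ≠ 1 → y * y = 1 → ∃ m : ℕ, (ξ ^ m) x = y)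
    (hc : ∀ x : P, x * x = 1 → ∀ g, x * g = g * x)
    (h4 : ∀ x : P, (x * x) * (x * x) = 1 → ∀ g, x * g = g * x)
    (h : C2 P) : ∀ x g : P, x * g = g * x := by
  intro x g
  by_contra hxg
  have hnt : ∃ y : P, y ≠ 1 := ⟨x, fun h1 => hxg (by rw [h1]; simp)⟩
  have hsq : ∀ a b : P, (a * a) * b = b * (a * a) := h.sq_central
  have hC1 : ∀ j : ℕ, ∀ y : P, y ^ (2 ^ j) = 1 → (∃ x1 : P, x1 ^ (2 ^ j) ≠ 1) →
      ∀ b, y * b = b * y := by
    intro j
    induction j with
    | zero =>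
      intro y hy _ b
      simp at hy
      rw [hy]; simp
    | succ j ih =>
      intro y hy hx1 b
      obtain ⟨x1, hx1⟩ := hx1
      have hx1j : x1 ^ (2 ^ j) ≠ 1 := by
        intro h0; apply hx1; rw [pow_succ, pow_mul, h0, one_pow]
      by_cases hv : y ^ (2 ^ j) = 1
      · exact ih y hv ⟨x1, hx1j⟩ b
      · have hvv : y ^ (2 ^ j) * y ^ (2 ^ j) = 1 := by
          have e : 2 ^ j + 2 ^ j = 2 ^ (j + 1) := by ring
          rw [← pow_add, e]; exact hy
        obtain ⟨x2, hx2, hx22⟩ := exists_pow_invol hP x1 (j + 1) hx1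
        obtain ⟨n, hn⟩ := htr _ _ hx2 hx22 hv hvv
        obtain ⟨x', hx'⟩ : ∃ x' : P, x' = (ξ ^ n) x2 := ⟨_, rfl⟩
        have hxe : x' ^ (2 ^ (j + 1)) = y ^ (2 ^ j) := by rw [hx', ← map_pow]; exact hn
        have hw : ((x' * x') * y⁻¹) ^ (2 ^ j) = 1 := by
          have hcomm : Commute (x' * x') y⁻¹ := hsq x' y⁻¹
          rw [hcomm.mul_pow, inv_pow, ← pow_two, ← pow_mul, ← pow_succ', hxe]
          exact mul_inv_cancel _
        have hwc := ih _ hw ⟨x1, hx1j⟩
        have hwi : ∀ b, ((x' * x') * y⁻¹)⁻¹ * b = b * ((x' * x') * y⁻¹)⁻¹ :=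
          fun b => (Commute.inv_left (hwc b)).eq
        calc y * b = ((x' * x') * y⁻¹)⁻¹ * ((x' * x') * b) := by group
          _ = ((x' * x') * y⁻¹)⁻¹ * (b * (x' * x')) := by rw [hsq x' b]
          _ = (((x' * x') * y⁻¹)⁻¹ * b) * (x' * x') := by group
          _ = (b * ((x' * x') * y⁻¹)⁻¹) * (x' * x') := by rw [hwi b]
          _ = b * y := by group
  obtain ⟨μ, ⟨x0, hx0⟩, htop⟩ := exists_top hP hnt
  have hμ2 : 2 ≤ μ := by
    by_contra hlt
    push Not at hlt
    apply hxg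
    apply h4
    have h1 := htop x
    have h44 : x ^ 4 = 1 := by
      interval_cases μ
      · norm_num at h1
        rw [show (4 : ℕ) = 2 * 2 from rfl, pow_mul, h1, one_pow]
      · norm_num at h1
        exact h1
    calc x * x * (x * x) = x ^ 4 := by
          rw [show (4 : ℕ) = 2 + 2 from rfl, pow_add, pow_two]
      _ = 1 := h44
  obtain ⟨ν, hν⟩ : ∃ ν, μ = ν + 2 := ⟨μ - 2, by omega⟩
  have hτsq : ∀ y : P, y ^ (2 ^ μ) * y ^ (2 ^ μ) = 1 := by
    intro y
    have e : 2 ^ μ + 2 ^ μ = 2 ^ (μ + 1) := by ring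
    rw [← pow_add, e]; exact htop y
  have hτmul : ∀ a b : P, (a * b) ^ (2 ^ μ) = a ^ (2 ^ μ) * b ^ (2 ^ μ) := by
    intro a b
    have e2 : (a * b) ^ 2 = a ^ 2 * b ^ 2 * cm b a := by
      have e := mul_eq_cm b a
      have e3 := h.cen b a b
      calc (a * b) ^ 2 = a * (b * a) * b := by rw [pow_two]; group
        _ = a * (a * b * cm b a) * b := by rw [e]
        _ = a * a * b * (cm b a * b) := by group
        _ = a * a * b * (b * cm b a) := by rw [e3]
        _ = a ^ 2 * b ^ 2 * cm b a := by rw [pow_two, pow_two]; group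
    have c1 : Commute (a ^ 2) (b ^ 2) := by
      have := hsq a (b ^ 2); rw [← pow_two] at this; exact this
    have c2 : Commute (a ^ 2 * b ^ 2) (cm b a) := (h.cen b a (a ^ 2 * b ^ 2)).symm
    have e5 : (cm b a) ^ (2 ^ (ν + 1)) = 1 := by
      rw [pow_succ', pow_mul, pow_two, h.sq, one_pow]
    have e6 : (2 : ℕ) ^ μ = 2 * 2 ^ (ν + 1) := by rw [hν]; ring
    calc (a * b) ^ (2 ^ μ) = ((a * b) ^ 2) ^ (2 ^ (ν + 1)) := by rw [e6, pow_mul]
      _ = (a ^ 2 * b ^ 2 * cm b a) ^ (2 ^ (ν + 1)) := by rw [e2]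
      _ = (a ^ 2) ^ (2 ^ (ν + 1)) * (b ^ 2) ^ (2 ^ (ν + 1)) := by
        rw [c2.mul_pow, c1.mul_pow, e5, mul_one]
      _ = a ^ (2 ^ μ) * b ^ (2 ^ μ) := by rw [e6, pow_mul, pow_mul]
  have hτc : ∀ y : P, y ^ (2 ^ μ) = 1 → ∀ b, y * b = b * y :=
    fun y hy => hC1 μ y hy ⟨x0, hx0⟩
  have hτmap : ∀ (φ : MulAut P) (y : P), (φ y) ^ (2 ^ μ) = φ (y ^ (2 ^ μ)) :=
    fun φ y => (map_pow φ y _).symm
  have hkeyR : ∀ w y y' : P, y ^ (2 ^ μ) = y' ^ (2 ^ μ) → cm w y = cm w y' := by
    intro w y y' hyy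
    have hd : (y * y'⁻¹) ^ (2 ^ μ) = 1 := by
      rw [hτmul, inv_pow, hyy]; exact mul_inv_cancel _
    have h1 := h.right_of_central w _ (hτc _ hd)
    have e : cm w y = cm w ((y * y'⁻¹) * y') := by
      congr 1; group
    rw [e, h.mul_right, h1, one_mul]
  have hkeyL : ∀ w y y' : P, y ^ (2 ^ μ) = y' ^ (2 ^ μ) → cm y w = cm y' w := by
    intro w y y' hyy
    rw [h.symm w y, h.symm w y']; exact hkeyR w y y' hyy
  have hZinv : ∀ (φ : MulAut P) (z : P), z * z = 1 → φ z * φ z = 1 := by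
    intro φ z hz; rw [← map_mul, hz, map_one]
  have hd : ∀ (e : P), e ≠ 1 → e * e = 1 → ∀ (k k' : MulAut P),
      (∀ (i : ℕ) (y : P), k ((ξ ^ i) y) = (ξ ^ i) (k y)) →
      (∀ (i : ℕ) (y : P), k' ((ξ ^ i) y) = (ξ ^ i) (k' y)) →
      k' e = e * k e → ∀ z : P, z * z = 1 → k' z = z * k z := by
    intro e he1 hee k k' hkc hk'c hn' z hzz
    by_cases hz1 : z = 1
    · rw [hz1]; simp
    · obtain ⟨i, hi⟩ := htr e z he1 hee hz1 hzz
      rw [← hi, hk'c i e, hn', map_mul, ← hkc i e]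
  have hua : ∀ x : P, x ^ (2 ^ μ) ≠ 1 → ∀ n : ℕ, cm x ((ξ ^ n) ((ξ ^ n) x)) = 1 := by
    intro x hxe n
    obtain ⟨e, he⟩ : ∃ e : P, e = x ^ (2 ^ μ) := ⟨_, rfl⟩
    rw [← he] at hxe
    have hee : e * e = 1 := by rw [he]; exact hτsq x
    obtain ⟨k, hk⟩ : ∃ k : MulAut P, k = ξ ^ n := ⟨_, rfl⟩
    rw [← hk]
    have hkc : ∀ (i : ℕ) (y : P), k ((ξ ^ i) y) = (ξ ^ i) (k y) := by
      intro i y; rw [hk]; exact pow_comm_apply ξ n i y
    by_cases hke : k e = e
    · have : (k (k x)) ^ (2 ^ μ) = x ^ (2 ^ μ) := by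
        rw [hτmap k (k x), hτmap k x, ← he, hke, hke]
      rw [hkeyR x _ _ this, cm_self]
    · have hkee : k e * k e = 1 := hZinv k e hee
      have hcomm : e * k e = k e * e := hc e hee (k e)
      have hne : e * k e ≠ 1 := by
        intro h0
        apply hke
        have e1 : e⁻¹ = k e := inv_eq_of_mul_eq_one_right h0
        have e2 : e⁻¹ = e := inv_eq_of_mul_eq_one_left hee
        rw [← e1, e2]
      have hsq2 : (e * k e) * (e * k e) = 1 := by
        calc (e * k e) * (e * k e) = e * (k e * e) * k e := by group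
          _ = e * (e * k e) * k e := by rw [← hcomm]
          _ = (e * e) * (k e * k e) := by group
          _ = 1 := by rw [hee, hkee, one_mul]
      obtain ⟨n', hn'⟩ := htr e (e * k e) hxe hee hne hsq2
      obtain ⟨k', hk'⟩ : ∃ k' : MulAut P, k' = ξ ^ n' := ⟨_, rfl⟩
      rw [← hk'] at hn'
      have hk'c : ∀ (i : ℕ) (y : P), k' ((ξ ^ i) y) = (ξ ^ i) (k' y) := by
        intro i y; rw [hk']; exact pow_comm_apply ξ n' i y
      have hkk' : ∀ y : P, k (k' y) = k' (k y) := by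
        intro y; rw [hk, hk']; exact pow_comm_apply ξ n n' y
      obtain ⟨z, hz⟩ : ∃ z : P, z = cm x (k x) := ⟨_, rfl⟩
      have hzz : z * z = 1 := by rw [hz]; exact h.sq _ _
      have ha : cm x (k' x) = z := by
        have : (k' x) ^ (2 ^ μ) = (x * k x) ^ (2 ^ μ) := by
          rw [hτmap k' x, hτmul, hτmap k x, ← he, hn']
        rw [hkeyR x _ _ this, h.mul_right, cm_self, one_mul, hz]
      have hb : cm x (k (k' x)) = z * cm x (k (k x)) := by
        have : (k (k' x)) ^ (2 ^ μ) = (k x * k (k x)) ^ (2 ^ μ) := by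
          rw [hτmap k (k' x), hτmap k' x, hτmul, hτmap k (k x), hτmap k x, ← he, hn', map_mul]
        rw [hkeyR x _ _ this, h.mul_right, hz]
      have hc' : cm x (k (k' x)) = k' z * k z := by
        have : x ^ (2 ^ μ) = (k' x * k x) ^ (2 ^ μ) := by
          rw [hτmul, hτmap k' x, hτmap k x, ← he, hn', mul_assoc, hkee, mul_one]
        rw [hkeyL (k (k' x)) _ _ this, h.mul_left]
        have e1 : cm (k' x) (k (k' x)) = k' z := by
          rw [hkk' x, ← cm_map, ← hz]
        have e2 : cm (k x) (k (k' x)) = k z := by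
          rw [← cm_map, ha]
        rw [e1, e2]
      have hdz : k' z = z * k z := hd e hxe hee k k' hkc hk'c hn' z hzz
      have hfin : z * cm x (k (k x)) = z * 1 := by
        rw [← hb, hc', hdz, mul_assoc, hZinv k z hzz]
      exact mul_left_cancel hfin
  have hsurj : ∀ e : P, e ≠ 1 → e * e = 1 → ∀ v : P, v ≠ 1 → v * v = 1 →
      ∃ n : ℕ, (ξ ^ n) ((ξ ^ n) e) = v := by
    intro e he1 hee v hv1 hvv
    choose nn hnn using
      (fun v : {v : P // v ≠ 1 ∧ v * v = 1} => htr e v.1 he1 hee v.2.1 v.2.2)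
    let f : {v : P // v ≠ 1 ∧ v * v = 1} → {v : P // v ≠ 1 ∧ v * v = 1} :=
      fun v => ⟨(ξ ^ nn v) ((ξ ^ nn v) e), by
        constructor
        · intro h0
          apply he1
          have := (MulEquiv.map_eq_one_iff _).mp h0
          exact (MulEquiv.map_eq_one_iff _).mp this
        · rw [← map_mul, ← map_mul, hee, map_one, map_one]⟩
    have hinj : Function.Injective f := by
      intro v v' hvv'
      have hE : (ξ ^ nn v) ((ξ ^ nn v) e) = (ξ ^ nn v') ((ξ ^ nn v') e) :=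
        congrArg Subtype.val hvv'
      by_contra hne
      have hne' : (ξ ^ nn v) e ≠ (ξ ^ nn v') e := by
        intro h0; apply hne; apply Subtype.ext; rw [← hnn v, ← hnn v']; exact h0
      obtain ⟨k, hk⟩ : ∃ k : MulAut P, k = ξ ^ nn v := ⟨_, rfl⟩
      obtain ⟨k', hk'⟩ : ∃ k' : MulAut P, k' = ξ ^ nn v' := ⟨_, rfl⟩
      rw [← hk, ← hk'] at hE hne'
      have hkk' : ∀ y, k (k' y) = k' (k y) := by
        intro y; rw [hk, hk']; exact pow_comm_apply ξ _ _ y
      have h1 : k e * k e = 1 := hZinv k e hee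
      have h2 : k' e * k' e = 1 := hZinv k' e hee
      have hcm : k e * k' e = k' e * k e := hc _ h1 _
      have hprod1 : k e * k' e ≠ 1 := by
        intro h0; apply hne'
        have e1 : (k e)⁻¹ = k' e := inv_eq_of_mul_eq_one_right h0
        have e2 : (k e)⁻¹ = k e := inv_eq_of_mul_eq_one_left h1
        rw [← e1, e2]
      have hprod2 : (k e * k' e) * (k e * k' e) = 1 := by
        calc (k e * k' e) * (k e * k' e) = k e * (k' e * k e) * k' e := by group
          _ = k e * (k e * k' e) * k' e := by rw [← hcm]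
          _ = (k e * k e) * (k' e * k' e) := by group
          _ = 1 := by rw [h1, h2, one_mul]
      obtain ⟨n'', hn''⟩ := htr e _ he1 hee hprod1 hprod2
      obtain ⟨k'', hk''⟩ : ∃ k'' : MulAut P, k'' = ξ ^ n'' := ⟨_, rfl⟩
      rw [← hk''] at hn''
      have hk''k : ∀ y, k'' (k y) = k (k'' y) := by
        intro y; rw [hk, hk'']; exact pow_comm_apply ξ _ _ y
      have hk''k' : ∀ y, k'' (k' y) = k' (k'' y) := by
        intro y; rw [hk', hk'']; exact pow_comm_apply ξ _ _ y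
      have hB : k (k' e) * k (k' e) = 1 := hZinv k _ h2
      have hA : k (k e) * k (k e) = 1 := hZinv k _ h1
      have key : k'' (k'' e) = 1 := by
        calc k'' (k'' e) = k'' (k e * k' e) := by rw [hn'']
          _ = k (k'' e) * k' (k'' e) := by rw [map_mul, hk''k, hk''k']
          _ = k (k e * k' e) * k' (k e * k' e) := by rw [hn'']
          _ = (k (k e) * k (k' e)) * (k' (k e) * k' (k' e)) := by rw [map_mul, map_mul]
          _ = (k (k e) * k (k' e)) * (k (k' e) * k (k e)) := by rw [← hkk' e, ← hE]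
          _ = k (k e) * (k (k' e) * k (k' e)) * k (k e) := by group
          _ = 1 := by rw [hB, mul_one, hA]
      apply he1
      exact (MulEquiv.map_eq_one_iff _).mp ((MulEquiv.map_eq_one_iff _).mp key)
    have hsur := Finite.surjective_of_injective hinj
    obtain ⟨v', hv'⟩ := hsur ⟨v, hv1, hvv⟩
    exact ⟨nn v', congrArg Subtype.val hv'⟩
  have hall : ∀ a b : P, a * b = b * a := by
    intro a b
    by_cases ha : a ^ (2 ^ μ) = 1
    · exact hτc a ha b
    · by_cases hb : b ^ (2 ^ μ) = 1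
      · exact (hτc b hb a).symm
      · obtain ⟨n, hn⟩ := hsurj _ ha (hτsq a) _ hb (hτsq b)
        have : b ^ (2 ^ μ) = ((ξ ^ n) ((ξ ^ n) a)) ^ (2 ^ μ) := by
          rw [hτmap (ξ ^ n) ((ξ ^ n) a), hτmap (ξ ^ n) a]; exact hn.symm
        have h1 := hkeyR a _ _ this
        rw [hua a ha n] at h1
        exact (cm_eq_one_iff a b).mp h1
  exact hxg (hall x g)


/-- Higman: a nonabelian finite 2-group with more than one involution and an automorphism whose
powers permute the involutions transitively has centre of exponent two. -/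
theorem center_sq (n : ℕ) : ∀ (P : Type u) [Group P] [Finite P], Nat.card P ≤ n → IsPGroup 2 P →
    ∀ ξ : MulAut P,
    (∀ x y : P, x ≠ 1 → x * x = 1 → y ≠ 1 → y * y = 1 → ∃ m : ℕ, (ξ ^ m) x = y) →
    (∃ x y : P, x ≠ y ∧ x ≠ 1 ∧ x * x = 1 ∧ y ≠ 1 ∧ y * y = 1) →
    (∃ x y : P, x * y ≠ y * x) →
    ∀ z : P, (∀ g, z * g = g * z) → z * z = 1 := by
  induction n with
  | zero =>
    intro P _ _ hcard
    exfalso
    have := Nat.card_pos (α := P)
    omega
  | succ n ih =>
    intro P _ _ hcard hP ξ htr h2 hna z0 hz0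
    by_contra hz0sq
    have hc : ∀ x : P, x * x = 1 → ∀ g, x * g = g * x := inv_central hP ξ htr
    obtain ⟨k0, hk1, hk2⟩ := exists_order4 hP z0 hz0sq
    obtain ⟨a0, ha0⟩ : ∃ a0 : P, a0 = z0 ^ k0 := ⟨_, rfl⟩
    rw [← ha0] at hk1 hk2
    have ha0c : ∀ g, a0 * g = g * a0 := by
      intro g; rw [ha0]; exact ((show Commute z0 g from hz0 g).pow_left k0).eq
    have h4 : ∀ x : P, (x * x) * (x * x) = 1 → ∀ g, x * g = g * x := by
      intro x hx4
      by_cases hx2 : x * x = 1
      · exact hc x hx2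
      · obtain ⟨m, hm⟩ := htr (a0 * a0) (x * x) hk1 hk2 hx2 hx4
        obtain ⟨a, ha⟩ : ∃ a : P, a = (ξ ^ m) a0 := ⟨_, rfl⟩
        have hac : ∀ g, a * g = g * a := by rw [ha]; exact aut_central _ a0 ha0c
        have haa : a * a = x * x := by rw [ha, ← map_mul]; exact hm
        have haic : ∀ g, a⁻¹ * g = g * a⁻¹ := fun g => (Commute.inv_left (hac g)).eq
        have hw : (x * a⁻¹) * (x * a⁻¹) = 1 := by
          calc (x * a⁻¹) * (x * a⁻¹) = x * (a⁻¹ * x) * a⁻¹ := by group
            _ = x * (x * a⁻¹) * a⁻¹ := by rw [haic x]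
            _ = (x * x) * (a * a)⁻¹ := by group
            _ = 1 := by rw [haa]; exact mul_inv_cancel _
        have hwc := hc _ hw
        intro g
        calc x * g = (x * a⁻¹) * (a * g) := by group
          _ = (x * a⁻¹) * (g * a) := by rw [hac g]
          _ = ((x * a⁻¹) * g) * a := by group
          _ = (g * (x * a⁻¹)) * a := by rw [hwc g]
          _ = g * x := by group
    obtain ⟨Z, hZ⟩ : ∃ Z : Subgroup P, ∀ x, x ∈ Z ↔ x * x = 1 := ⟨Z1 hc, fun x => Iff.rfl⟩
    have hZn : Z.Normal := ⟨fun a ha g => by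
      rw [hZ] at ha ⊢
      have e : g * a * g⁻¹ = a := by
        rw [← hc a ha g]; group
      rw [e]; exact ha⟩
    by_cases hab : ∀ X Y : P ⧸ Z, X * Y = Y * X
    · have hcmZ : ∀ x y : P, cm x y ∈ Z := by
        intro x y
        have h0 := hab (QuotientGroup.mk y) (QuotientGroup.mk x)
        have h1 := (QuotientGroup.eq (s := Z)).mp
          (show (QuotientGroup.mk (y * x) : P ⧸ Z) = QuotientGroup.mk (x * y) from h0)
        have e : cm x y = (y * x)⁻¹ * (x * y) := by unfold cm; group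
        rw [e]; exact h1
      have hC2 : C2 P := by
        refine ⟨?_, ?_⟩
        · intro x y g
          exact hc _ ((hZ _).mp (hcmZ x y)) g
        · intro x y
          exact (hZ _).mp (hcmZ x y)
      obtain ⟨x, y, hxy⟩ := hna
      exact hxy (abelian_of_c2 hP ξ htr hc h4 hC2 x y)
    · push Not at hab
      have hcardQ : Nat.card (P ⧸ Z) ≤ n := by
        have h1 : Nat.card P = Nat.card (P ⧸ Z) * Nat.card Z :=
          Subgroup.card_eq_card_quotient_mul_card_subgroup Z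
        have h2' : 2 ≤ Nat.card Z := by
          have hpos : 0 < Nat.card Z := Nat.card_pos
          have hne : Nat.card Z ≠ 1 := by
            intro h1'
            have hbot := Subgroup.eq_bot_of_card_eq Z h1'
            have hmem : a0 * a0 ∈ Z := (hZ _).mpr hk2
            rw [hbot, Subgroup.mem_bot] at hmem
            exact hk1 hmem
          omega
        have hposQ : 0 < Nat.card (P ⧸ Z) := Nat.card_pos
        nlinarith
      have hPQ : IsPGroup 2 (P ⧸ Z) := hP.to_quotient Z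
      have hmap : Z.map (MulEquiv.toMonoidHom ξ) = Z := by
        ext x
        rw [Subgroup.mem_map]
        constructor
        · rintro ⟨y, hy, rfl⟩
          rw [hZ] at hy ⊢
          show ξ y * ξ y = 1
          rw [← map_mul, hy, map_one]
        · intro hx
          refine ⟨ξ.symm x, ?_, ?_⟩
          · rw [hZ] at hx ⊢
            rw [← map_mul, hx, map_one]
          · show ξ (ξ.symm x) = x
            exact MulEquiv.apply_symm_apply ξ x
      obtain ⟨ξb, hξb⟩ : ∃ ξb : MulAut (P ⧸ Z),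
          ∀ x : P, ξb (QuotientGroup.mk x) = QuotientGroup.mk (ξ x) :=
        ⟨QuotientGroup.congr Z Z ξ hmap, fun x => QuotientGroup.congr_mk Z Z ξ hmap x⟩
      have hξbpow : ∀ (m : ℕ) (x : P),
          (ξb ^ m) (QuotientGroup.mk x) = QuotientGroup.mk ((ξ ^ m) x) := by
        intro m
        induction m with
        | zero => intro x; simp
        | succ m ihm =>
          intro x
          rw [pow_succ, pow_succ, MulAut.mul_apply, MulAut.mul_apply, hξb, ihm]
      have htrQ : ∀ X Y : P ⧸ Z, X ≠ 1 → X * X = 1 → Y ≠ 1 → Y * Y = 1 →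
          ∃ m : ℕ, (ξb ^ m) X = Y := by
        intro X Y
        obtain ⟨x, rfl⟩ := QuotientGroup.mk_surjective X
        obtain ⟨y, rfl⟩ := QuotientGroup.mk_surjective Y
        intro hX1 hXX hY1 hYY
        have hx1 : x * x ≠ 1 := by
          intro h0; apply hX1; exact (QuotientGroup.eq_one_iff x).mpr ((hZ x).mpr h0)
        have hx2 : (x * x) * (x * x) = 1 :=
          (hZ _).mp ((QuotientGroup.eq_one_iff (x * x)).mp hXX)
        have hy1 : y * y ≠ 1 := by
          intro h0; apply hY1; exact (QuotientGroup.eq_one_iff y).mpr ((hZ y).mpr h0)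
        have hy2 : (y * y) * (y * y) = 1 :=
          (hZ _).mp ((QuotientGroup.eq_one_iff (y * y)).mp hYY)
        obtain ⟨m, hm⟩ := htr _ _ hx1 hx2 hy1 hy2
        refine ⟨m, ?_⟩
        rw [hξbpow, QuotientGroup.eq, hZ]
        obtain ⟨x', hx'⟩ : ∃ x' : P, x' = (ξ ^ m) x := ⟨_, rfl⟩
        rw [← hx']
        have hx'x' : x' * x' = y * y := by rw [hx', ← map_mul]; exact hm
        have hyc : ∀ g, y * g = g * y := h4 y hy2
        calc x'⁻¹ * y * (x'⁻¹ * y) = x'⁻¹ * (y * x'⁻¹) * y := by group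
          _ = x'⁻¹ * (x'⁻¹ * y) * y := by rw [hyc x'⁻¹]
          _ = (x' * x')⁻¹ * (y * y) := by group
          _ = 1 := by rw [hx'x']; exact inv_mul_cancel _
      have h2Q : ∃ X Y : P ⧸ Z, X ≠ Y ∧ X ≠ 1 ∧ X * X = 1 ∧ Y ≠ 1 ∧ Y * Y = 1 := by
        obtain ⟨u, v, huv, hu1, huu, hv1, hvv⟩ := h2
        obtain ⟨w, hw1, hww, hwa⟩ : ∃ w : P, w ≠ 1 ∧ w * w = 1 ∧ w ≠ a0 * a0 := by
          by_cases hua : u = a0 * a0
          · exact ⟨v, hv1, hvv, fun h0 => huv (by rw [hua, h0])⟩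
          · exact ⟨u, hu1, huu, hua⟩
        obtain ⟨m, hm⟩ := htr (a0 * a0) w hk1 hk2 hw1 hww
        obtain ⟨b, hb⟩ : ∃ b : P, b = (ξ ^ m) a0 := ⟨_, rfl⟩
        have hbb : b * b = w := by rw [hb, ← map_mul]; exact hm
        have hbc : ∀ g, b * g = g * b := by rw [hb]; exact aut_central _ a0 ha0c
        refine ⟨QuotientGroup.mk a0, QuotientGroup.mk b, ?_, ?_, ?_, ?_, ?_⟩
        · intro h0
          rw [QuotientGroup.eq, hZ] at h0
          have e : (a0⁻¹ * b) * (a0⁻¹ * b) = (a0 * a0)⁻¹ * (b * b) := by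
            calc (a0⁻¹ * b) * (a0⁻¹ * b) = a0⁻¹ * (b * a0⁻¹) * b := by group
              _ = a0⁻¹ * (a0⁻¹ * b) * b := by rw [hbc a0⁻¹]
              _ = (a0 * a0)⁻¹ * (b * b) := by group
          rw [e, hbb] at h0
          exact hwa (inv_mul_eq_one.mp h0).symm
        · intro h0
          exact hk1 ((hZ a0).mp ((QuotientGroup.eq_one_iff a0).mp h0))
        · exact (QuotientGroup.eq_one_iff (a0 * a0)).mpr ((hZ _).mpr hk2)
        · intro h0
          apply hw1
          rw [← hbb]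
          exact (hZ b).mp ((QuotientGroup.eq_one_iff b).mp h0)
        · show (QuotientGroup.mk (b * b) : P ⧸ Z) = 1
          rw [hbb]
          exact (QuotientGroup.eq_one_iff w).mpr ((hZ w).mpr hww)
      have hbar := ih (P ⧸ Z) hcardQ hPQ ξb htrQ h2Q hab
      have hsharp : ∀ y : P, (∀ g, (y * g)⁻¹ * (g * y) ∈ Z) → ∀ g, y * g = g * y := by
        intro y hy
        apply h4
        have hcen : ∀ G : P ⧸ Z,
            (QuotientGroup.mk y : P ⧸ Z) * G = G * QuotientGroup.mk y := by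
          intro G
          obtain ⟨g, rfl⟩ := QuotientGroup.mk_surjective G
          show (QuotientGroup.mk (y * g) : P ⧸ Z) = QuotientGroup.mk (g * y)
          rw [QuotientGroup.eq]; exact hy g
        have h5 := hbar _ hcen
        exact (hZ _).mp ((QuotientGroup.eq_one_iff (y * y)).mp h5)
      obtain ⟨x, y, hxy⟩ := hna
      have hnt : Nontrivial (P ⧸ Subgroup.center P) := by
        refine ⟨⟨QuotientGroup.mk x, 1, ?_⟩⟩
        intro h0
        have h1 := (QuotientGroup.eq_one_iff x).mp h0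
        exact hxy ((Subgroup.mem_center_iff.mp h1 y).symm)
      obtain ⟨Y, hY1, hYY, hYc⟩ := exists_central_invol (hP.to_quotient (Subgroup.center P))
      obtain ⟨y0, rfl⟩ := QuotientGroup.mk_surjective Y
      have hy0n : y0 ∉ Subgroup.center P :=
        fun hmem => hY1 ((QuotientGroup.eq_one_iff y0).mpr hmem)
      have hy0sq : y0 * y0 ∈ Subgroup.center P := (QuotientGroup.eq_one_iff (y0 * y0)).mp hYY
      have hy0c : ∀ g, (y0 * g)⁻¹ * (g * y0) ∈ Subgroup.center P := by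
        intro g
        have h0 := hYc (QuotientGroup.mk g)
        exact (QuotientGroup.eq (s := Subgroup.center P)).mp
          (show (QuotientGroup.mk (y0 * g) : P ⧸ Subgroup.center P) = QuotientGroup.mk (g * y0)
            from h0)
      have hfinal : ∀ g, y0 * g = g * y0 := by
        apply hsharp
        intro g
        rw [hZ]
        obtain ⟨u, hu⟩ : ∃ u : P, u = (y0 * g)⁻¹ * (g * y0) := ⟨_, rfl⟩
        rw [← hu]
        have huc : ∀ b, u * b = b * u := by
          intro b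
          have h0 := hy0c g
          rw [← hu] at h0
          exact (Subgroup.mem_center_iff.mp h0 b).symm
        have hgy : g * y0 = y0 * g * u := by rw [hu]; group
        have hyyc : (y0 * y0) * g = g * (y0 * y0) := (Subgroup.mem_center_iff.mp hy0sq g).symm
        have e : (y0 * y0) * g * (u * u) = (y0 * y0) * g * 1 := by
          calc (y0 * y0) * g * (u * u) = y0 * (y0 * g * u) * u := by group
            _ = y0 * (g * y0) * u := by rw [← hgy]
            _ = y0 * g * (y0 * u) := by group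
            _ = y0 * g * (u * y0) := by rw [huc y0]
            _ = (y0 * g * u) * y0 := by group
            _ = (g * y0) * y0 := by rw [← hgy]
            _ = g * (y0 * y0) := by group
            _ = (y0 * y0) * g := hyyc.symm
            _ = (y0 * y0) * g * 1 := by rw [mul_one]
        exact mul_left_cancel e
      exact hy0n (Subgroup.mem_center_iff.mpr (fun g => (hfinal g).symm))

end Cfsg.Agent.Lib.Helper18.Suzuki2
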